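import Mathlib
import Cfsg.Agent.Lib.Comput.Transfer2
import Cfsg.Agent.Lib.Leech.Conf3
import Cfsg.Agent.Lib.LieModel.Unit
import Cfsg.Agent.Lib.Unitary.Center
import Cfsg.Agent.Lib.Unitary.Order
import Cfsg.Agent.Lib.Unitary.SU2

/-!
# Identification of subgroups of `Co0` through their action on sets of lattice vectors
-/

set_option autoImplicit false

namespace CfsgLib.LeechId

open CfsgLib.Comput CfsgLib.Leech CfsgLib.LieModel Cfsg Matrix
open scoped Pointwise

/-- `k` distinct subsets of `n` points -/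
noncomputable def msOK (n k : ℕ) (Ms : List ℕ) : Bool :=
  band (Nat.beq (lenL Ms) k) (band (nodupB Ms) (allL (fun S => Nat.ble (Nat.succ S) (Nat.shiftLeft 1 n)) Ms))

/-- the network `N` permutes the sets as the network `N'` permutes their numbers -/
noncomputable def msActs (k : ℕ) (Ms : List ℕ) (N N' : Net) : Bool :=
  band (N'.ok k) (allLt (fun i => Nat.beq (N.app (nth 0 Ms (fnK N' i))) (nth 0 Ms i)) k)

theorem nth_eq_getD (l : List ℕ) (i : ℕ) : nth 0 l i = l.getD i 0 := by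
  induction l generalizing i with
  | nil => rfl
  | cons a l ih =>
    cases i with
    | zero => rfl
    | succ i => exact ih i

theorem ms_inj {Ω : Type*} {n k : ℕ} {pt : ℕ → Ω} (inj : ∀ i < n, ∀ j < n, pt i = pt j → i = j) {Ms : List ℕ}
    (h : msOK n k Ms = true) : ∀ i < k, ∀ j < k, sem n pt (nth 0 Ms i) = sem n pt (nth 0 Ms j) → i = j := by
  simp only [msOK, band_eq_true] at h
  obtain ⟨h1, h2, h3⟩ := h
  have hl : Ms.length = k := (lenL_eq Ms).symm.trans (Nat.eq_of_beq_eq_true h1)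
  have h4 : ∀ S ∈ Ms, S < 2 ^ n := fun S hS => by
    have := Nat.le_of_ble_eq_true (allL_sound h3 S hS)
    rwa [show Nat.shiftLeft 1 n = 2 ^ n from Nat.one_shiftLeft n] at this
  have h5 : ∀ S T : ℕ, sem n pt S = sem n pt T → ∀ x < n, S.testBit x = true → T.testBit x = true := by
    intro S T e x hx hS
    obtain ⟨y, hy, h6, h7⟩ : pt x ∈ sem n pt T := e ▸ ⟨x, hx, hS, rfl⟩
    rwa [← inj y hy x hx h7]
  intro i hi j hj e
  rw [nth_eq_getD, nth_eq_getD, List.getD_eq_getElem _ _ (hl ▸ hi), List.getD_eq_getElem _ _ (hl ▸ hj)] at e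
  refine (List.Nodup.getElem_inj_iff (nodupB_sound h2) (hi := hl ▸ hi) (hj := hl ▸ hj)).1 ?_
  apply Nat.eq_of_testBit_eq
  intro x
  rcases Nat.lt_or_ge x n with hx | hx
  · exact Bool.eq_iff_iff.2 ⟨h5 _ _ e x hx, h5 _ _ e.symm x hx⟩
  · have h8 : ∀ S ∈ Ms, S.testBit x = false := fun S hS =>
      Nat.testBit_lt_two_pow ((h4 S hS).trans_le (Nat.pow_le_pow_right (by norm_num) hx))
    rw [h8 _ (List.getElem_mem _), h8 _ (List.getElem_mem _)]

theorem acts_ms {G Ω : Type*} [Group G] [MulAction G Ω] {n k : ℕ} {pt : ℕ → Ω} {N N' : Net} {x : G} {Ms : List ℕ}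
    (h : Acts n pt N x) (h' : msActs k Ms N N' = true) : Acts k (fun i => sem n pt (nth 0 Ms i)) N' x := by
  simp only [msActs, band_eq_true] at h'
  refine ⟨Net.ok_sound h'.1, fun i hi => ?_⟩
  have := Nat.eq_of_beq_eq_true (allLt_sound h'.2 i hi)
  rw [fnK_eq] at this
  change x • sem n pt _ = _
  rw [← h.sem_app, this]

/-- a subgroup of `Co0` containing two elements which permute sets of vectors like the letters `0` and `2` -/
theorem equiv_of_ms {T n k : ℕ} [NeZero k] {Ms : List ℕ} (hT : tabOK T n 0 = true) (hM : msOK n k Ms = true)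
    {W : List Net} {a b : Co0} {f f' : ℕ → ℕ} {N N' : Net} (sa : Sim a f) (sb : Sim b f')
    (ha : actsV' T n N f = true) (hb : actsV' T n N' f' = true) (h1 : msActs k Ms N (nth Net.nil W 0) = true)
    (h2 : msActs k Ms N' (nth Net.nil W 2) = true) (H : Subgroup Co0) [Finite H] (ma : a ∈ H) (mb : b ∈ H)
    (hc : Nat.card H ≤ Nat.card (cl (permG k W) [1, 3])) : Nonempty (H ≃* cl (permG k W) [1, 3]) := by
  obtain ⟨e, -⟩ := transfer (ms_inj (ptV_inj hT) hM) (W := W) (top := [1, 3]) H (fun w hw => by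
    simp only [List.mem_cons, List.not_mem_nil, or_false] at hw
    rcases hw with rfl | rfl
    · exact ⟨0, by norm_num, rfl, a, ma, acts_ms (acts_ptV' hT sa ha) h1⟩
    · exact ⟨2, by norm_num, rfl, b, mb, acts_ms (acts_ptV' hT sb hb) h2⟩) hc
  exact ⟨e⟩

section
variable {F ι S G : Type*} [Field F] [Fintype ι] [DecidableEq ι] [Group S] [Group G] {n : ℕ} {v : ℕ → ι → F}

omit [Fintype ι] [DecidableEq ι] in
theorem eq_one_of_compat [Fintype ι] [DecidableEq ι] (hv : ProjInj n v) {a : F} {π : Equiv.Perm (Fin n)}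
    (ha : IsUnit (a • (1 : Matrix ι ι F))) (h : Compat v (a • (1 : Matrix ι ι F)) π) : π = 1 := by
  ext i
  obtain ⟨c, hc⟩ := h i
  rw [smul_mulVec, one_mulVec] at hc
  have h0 : a ≠ 0 := by
    rintro rfl
    rw [zero_smul, isUnit_zero_iff] at ha
    exact hv.1 i i.2 (by rw [← one_mulVec (v i), ← ha, zero_mulVec])
  exact (hv.2 i i.2 _ (π i).2 (a⁻¹ * c) (by rw [mul_smul, ← hc, inv_smul_smul₀ h0])).symm

variable (ρ : S →* Matrix ι ι F) (φ : S →* G) {g : ℕ → S} {p : ℕ → Equiv.Perm (Fin n)} {ms : List ℕ}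

theorem pairs_ker (hφ : ∀ s, φ s = 1 → ∃ a : F, ρ s = a • 1) (hv : ProjInj n v)
    (h : ∀ m ∈ ms, m < 255 ∧ Compat v (ρ (g m)) (p m)) :
    ∀ x ∈ cl (fun m => (g m, p m)) (ms.map Nat.succ), φ x.1 = 1 → x.2 = 1 := fun x hx h1 => by
  obtain ⟨a, ha⟩ := hφ _ h1
  have h2 : Compat v (ρ x.1) x.2 := pairs_le ρ hv h hx
  exact eq_one_of_compat hv (ha ▸ (Group.isUnit x.1).map ρ) (ha ▸ h2)

/-- a quotient by scalars of the right order -/
theorem link_scalar [Finite G] (hφ : ∀ s, φ s = 1 → ∃ a : F, ρ s = a • 1) (hv : ProjInj n v)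
    (h : ∀ m ∈ ms, m < 255 ∧ Compat v (ρ (g m)) (p m)) (hc : Nat.card G ≤ Nat.card (cl p (ms.map Nat.succ))) :
    Nonempty (G ≃* cl p (ms.map Nat.succ)) := by
  obtain ⟨e, -⟩ := equiv_of_pairs φ _ (pairs_ker ρ φ hφ hv h) (by rwa [map_snd_cl])
  exact ⟨e.trans (MulEquiv.subgroupCongr (map_snd_cl g p _))⟩

/-- a simple quotient by scalars -/
theorem link_simple [IsSimpleGroup G] (hφ : ∀ s, φ s = 1 → ∃ a : F, ρ s = a • 1) (hv : ProjInj n v)
    (h : ∀ m ∈ ms, m < 255 ∧ Compat v (ρ (g m)) (p m)) (hs : ∀ a : G, ∃ s ∈ cl g (ms.map Nat.succ), φ s = a)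
    (hne : cl p (ms.map Nat.succ) ≠ ⊥) : Nonempty (G ≃* cl p (ms.map Nat.succ)) := by
  obtain ⟨ψ, h1, -⟩ := exists_surj_of_pairs φ _ (pairs_ker ρ φ hφ hv h)
  have ht : (cl (fun m => (g m, p m)) (ms.map Nat.succ)).map (φ.comp (MonoidHom.fst S _)) = ⊤ := by
    rw [← Subgroup.map_map, map_fst_cl]
    exact eq_top_iff.2 fun a _ => hs a
  let χ : G →* cl p (ms.map Nat.succ) := (MulEquiv.subgroupCongr (map_snd_cl g p _)).toMonoidHom.comp
    (ψ.comp (Subgroup.topEquiv.symm.trans (MulEquiv.subgroupCongr ht.symm)).toMonoidHom)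
  have h2 : Function.Surjective χ := (MulEquiv.subgroupCongr (map_snd_cl g p _)).surjective.comp
    (h1.comp (Subgroup.topEquiv.symm.trans (MulEquiv.subgroupCongr ht.symm)).surjective)
  refine ⟨MulEquiv.ofBijective χ ⟨?_, h2⟩⟩
  rw [← MonoidHom.ker_eq_bot_iff]
  refine (Subgroup.Normal.eq_bot_or_eq_top (inferInstance : χ.ker.Normal)).resolve_right fun e => hne ?_
  refine eq_bot_iff.2 fun y hy => ?_
  obtain ⟨a, ha⟩ := h2 ⟨y, hy⟩
  exact congrArg Subtype.val (ha.symm.trans (e.ge (Subgroup.mem_top a)))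

end

theorem su_scalar {K : Type*} [Field K] [Fintype K] {n q : ℕ} (hK : Fintype.card K = q ^ 2) (hn : 2 ≤ n)
    (s : SU n K q) (h : QuotientGroup.mk' (Subgroup.center (SU n K q)) s = 1) : ∃ a : K, suMat n K q s = a • 1 :=
  (CfsgLib.Unitary.mem_center_SU_iff hK hn).1 ((QuotientGroup.eq_one_iff s).1 h)

end CfsgLib.LeechId
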